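import Mathlib
import Cfsg.Agent.Lib.Helper36.Stu.Defs

/-!
# Project STU, package BURN
-/

set_option autoImplicit false

namespace Cfsg.Agent.Lib.Helper22.Stu

open Cfsg.Agent.Lib.Helper36.Stu

universe u

/-- BURN -/
theorem pkgBurn : PkgBurn.{u} := by
  classical
  intro G _ _ H
  haveI : Fintype G := Fintype.ofFinite G
  haveI : Fintype (G ⧸ H) := Fintype.ofFinite _
  rw [finsum_eq_sum_of_fintype]
  have h := MulAction.sum_card_fixedBy_eq_card_orbits_mul_card_group G (G ⧸ H)
  have h1 : Fintype.card (Quotient (MulAction.orbitRel G (G ⧸ H))) = 1 := by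
    rw [Fintype.card_eq_one_iff]
    refine ⟨Quotient.mk _ ((1 : G) : G ⧸ H), ?_⟩
    intro y
    induction y using Quotient.inductionOn with
    | _ b =>
      apply Quotient.sound
      show b ∈ MulAction.orbit G (((1 : G) : G ⧸ H))
      obtain ⟨g, hg⟩ := MulAction.exists_smul_eq G (((1 : G) : G ⧸ H)) b
      exact ⟨g, hg⟩
  rw [h1, one_mul] at h
  have h2 : ∀ g : G, Cfsg.fixedPointCharacter H g =
      ((Fintype.card (MulAction.fixedBy (G ⧸ H) g) : ℕ) : ℂ) := by
    intro g
    unfold Cfsg.fixedPointCharacter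
    rw [Nat.card_eq_fintype_card]
  simp_rw [h2]
  rw [← Nat.cast_sum, h, Nat.card_eq_fintype_card]

end Cfsg.Agent.Lib.Helper22.Stu
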