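import Mathlib
import Cfsg.Agent.Lib.Helper36.Stu.Defs

/-!
# Project STU, package FIB
-/

set_option autoImplicit false

namespace Cfsg.Agent.Lib.Helper22.Stu

open Cfsg.Agent.Lib.Helper36.Stu

universe u v

/-- FIB -/
theorem pkgFib : PkgFib.{u, v} := by
  classical
  intro G _ _ U Y T _ x hYU hxU hex huniq φ hφ
  haveI : Fintype U := Fintype.ofFinite _
  haveI : Fintype Y := Fintype.ofFinite _
  -- the bijection
  let F : Y × T → U := fun p => ⟨(p.1 : G) * x p.2, U.mul_mem (hYU p.1.2) (hxU p.2)⟩
  have hF : Function.Bijective F := by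
    constructor
    · rintro ⟨y, t⟩ ⟨y', t'⟩ h
      have h' : (y : G) * x t = (y' : G) * x t' := congrArg Subtype.val h
      have ht : t = t' := huniq t t' y y.2 y' y'.2 h'
      subst ht
      have : (y : G) = y' := mul_right_cancel h'
      exact Prod.ext (Subtype.ext this) rfl
    · rintro ⟨u, hu⟩
      obtain ⟨t, y, hy, rfl⟩ := hex u hu
      exact ⟨(⟨y, hy⟩, t), rfl⟩
  let E : Y × T ≃ U := Equiv.ofBijective F hF
  have hE : ∀ (y : Y) (t : T), ((E (y, t) : U) : G) = (y : G) * x t := fun y t => rfl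
  constructor
  · rw [finsum_eq_sum_of_fintype, ← Equiv.sum_comp E (fun u : U => φ (u : G))]
    rw [Fintype.sum_prod_type]
    have : ∀ y : Y, ∑ t : T, φ ((E (y, t) : U) : G) = ∑ t : T, φ (x t) := by
      intro y
      apply Finset.sum_congr rfl
      intro t _
      rw [hE]
      exact hφ y y.2 t
    simp_rw [this]
    rw [Finset.sum_const, Finset.card_univ, nsmul_eq_mul, Nat.card_eq_fintype_card]
  · rw [Nat.card_congr E.symm, Nat.card_prod, Nat.card_eq_fintype_card (α := T)]

end Cfsg.Agent.Lib.Helper22.Stu
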