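import Mathlib
import Cfsg.Agent.Lib.Helper36.Stu.Defs

/-!
# Project STU, package FROB
-/

set_option autoImplicit false

namespace Cfsg.Agent.Lib.Helper22.Stu

open Cfsg.Agent.Lib.Helper36.Stu

universe u

/-- FROB -/
theorem pkgFrob : PkgFrob.{u} := by
  classical
  intro G _ _ P φ hφ
  haveI : Fintype G := Fintype.ofFinite G
  haveI : Fintype (G ⧸ P) := Fintype.ofFinite _
  haveI : Fintype P := Fintype.ofFinite _
  rw [finsum_eq_sum_of_fintype, finsum_eq_sum_of_fintype]
  -- the permutation character as a sum of indicators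
  have h1 : ∀ x : G, Cfsg.fixedPointCharacter P x =
      ∑ c : G ⧸ P, (if x • c = c then (1 : ℂ) else 0) := by
    intro x
    unfold Cfsg.fixedPointCharacter
    rw [Finset.sum_boole, Nat.card_eq_fintype_card]
    congr 1
    exact Fintype.card_of_subtype (Finset.univ.filter (fun c : G ⧸ P => x • c = c))
      (by intro c; simp [MulAction.mem_fixedBy])
  have h2 : ∀ x : G, Cfsg.fixedPointCharacter P x * φ x =
      ∑ c : G ⧸ P, (if x • c = c then φ x else 0) := by
    intro x
    rw [h1, Finset.sum_mul]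
    apply Finset.sum_congr rfl
    intro c _
    split_ifs <;> simp
  simp_rw [h2]
  rw [Finset.sum_comm]
  have h3 : ∀ c : G ⧸ P, ∑ x : G, (if x • c = c then φ x else 0) = ∑ y : P, φ (y : G) := by
    intro c
    induction c using QuotientGroup.induction_on with
    | H g =>
      rw [← Equiv.sum_comp (MulAut.conj g).toEquiv]
      have h4 : ∀ y : G, (if ((MulAut.conj g).toEquiv y) • (g : G ⧸ P) = (g : G ⧸ P) then
          φ ((MulAut.conj g).toEquiv y) else 0) = if y ∈ P then φ y else 0 := by
        intro y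
        have e1 : (MulAut.conj g).toEquiv y = g * y * g⁻¹ := rfl
        have e2 : (g * y * g⁻¹) • (g : G ⧸ P) = (((g * y * g⁻¹) * g : G) : G ⧸ P) := rfl
        have e3 : (g * y * g⁻¹ * g)⁻¹ * g = y⁻¹ := by group
        have e4 : ((((g * y * g⁻¹) * g : G) : G ⧸ P) = (g : G ⧸ P)) ↔ y ∈ P := by
          rw [QuotientGroup.eq, e3, inv_mem_iff]
        rw [e1, e2, hφ y g]
        by_cases hy : y ∈ P
        · rw [if_pos (e4.mpr hy), if_pos hy]
        · rw [if_neg (fun h => hy (e4.mp h)), if_neg hy]
      simp_rw [h4]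
      rw [← Finset.sum_filter]
      exact Finset.sum_subtype (Finset.univ.filter (fun y : G => y ∈ P)) (by simp) φ
  simp_rw [h3]
  rw [Finset.sum_const, Finset.card_univ, nsmul_eq_mul]
  congr 2
  rw [Subgroup.index, Nat.card_eq_fintype_card]

end Cfsg.Agent.Lib.Helper22.Stu
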