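import Mathlib
import Cfsg.Agent.Lib.Helper36.Stu.Defs

/-!
# Project STU, package PARSUM
-/

set_option autoImplicit false

namespace Cfsg.Agent.Lib.Helper22.Stu

open Cfsg.Agent.Lib.Helper36.Stu

universe u

/-- PARSUM -/
theorem pkgParSum : PkgParSum.{u} := by
  classical
  intro G _ _ U B P χ c hUB hBP h1 hc hex hsum
  haveI : Fintype P := Fintype.ofFinite _
  haveI : Fintype U := Fintype.ofFinite _
  rw [finsum_eq_sum_of_fintype] at hsum
  have hUne : (Nat.card U : ℂ) ≠ 0 := by
    exact_mod_cast (Nat.card_pos (α := U)).ne'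
  -- (1) the spherical function sums to `0` over `P`
  have hA : ∑ x : P, sph U χ (x : G) = 0 := by
    unfold sph
    simp_rw [finsum_eq_sum_of_fintype]
    rw [← Finset.mul_sum, Finset.sum_comm]
    have : ∀ u : U, ∑ x : P, χ ((x : G) * (u : G)) = 0 := by
      intro u
      rw [← hsum]
      exact Equiv.sum_comp (Equiv.mulRight (⟨(u : G), hBP (hUB u.2)⟩ : P))
        (fun x : P => χ (x : G))
    simp_rw [this]
    simp
  -- (2) its values
  have hB : ∀ x : P, sph U χ (x : G) = if (x : G) ∈ B then 1 else c := by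
    intro x
    split_ifs with h
    · exact h1 _ h
    · exact hc _ x.2 h
  simp_rw [hB] at hA
  rw [Finset.sum_ite, Finset.sum_const, Finset.sum_const, nsmul_eq_mul, nsmul_eq_mul,
    mul_one] at hA
  have hbpos : 0 < (Finset.univ.filter (fun x : P => (x : G) ∈ B)).card :=
    Finset.card_pos.mpr ⟨1, by simp [B.one_mem]⟩
  have hnpos : 0 < (Finset.univ.filter (fun x : P => ¬ (x : G) ∈ B)).card := by
    obtain ⟨x, hxP, hxB⟩ := hex
    exact Finset.card_pos.mpr ⟨⟨x, hxP⟩, by simp [hxB]⟩
  generalize (Finset.univ.filter (fun x : P => (x : G) ∈ B)).card = b at hA hbpos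
  generalize (Finset.univ.filter (fun x : P => ¬ (x : G) ∈ B)).card = n at hA hnpos
  refine ⟨-(b : ℝ) / n, ?_, ?_⟩
  · have hb' : (0 : ℝ) < b := by exact_mod_cast hbpos
    have hn' : (0 : ℝ) < n := by exact_mod_cast hnpos
    exact div_neg_of_neg_of_pos (by linarith) hn'
  · have hn0 : (n : ℂ) ≠ 0 := by exact_mod_cast hnpos.ne'
    push_cast
    field_simp
    linear_combination hA

end Cfsg.Agent.Lib.Helper22.Stu
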